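import Cfsg.Agent.Lib.MinIndex.U35.Group
import Cfsg.Agent.Lib.RealChar.AltCover

/-!
A subgroup of order 2520 of PSU₃(5).
-/

set_option autoImplicit false
set_option linter.unusedSectionVars false
set_option linter.style.haveILetI false

namespace CfsgLib.MinIndex.U35

open Matrix CfsgLib.Amalgams

/-- The five generators. -/
def genN : Fin 5 → MN :=
  ![ofList [0, 0, 1, 0, 4, 5, 1, 20, 1], ofList [1, 7, 4, 18, 23, 15, 2, 1, 6],
    ofList [4, 7, 1, 5, 19, 17, 9, 15, 12], ofList [4, 16, 4, 7, 18, 18, 21, 12, 13],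
    ofList [5, 6, 5, 23, 16, 9, 17, 4, 9]]

/-- Comparison of matrices of codes entry by entry. -/
def eqN (A B : MN) : Bool :=
  decide (A 0 0 = B 0 0 ∧ A 0 1 = B 0 1 ∧ A 0 2 = B 0 2 ∧ A 1 0 = B 1 0 ∧ A 1 1 = B 1 1 ∧ A 1 2 = B 1 2 ∧
    A 2 0 = B 2 0 ∧ A 2 1 = B 2 1 ∧ A 2 2 = B 2 2)

theorem eq_of_eqN {A B : MN} (h : eqN A B = true) : A = B := by
  simp only [eqN, decide_eq_true_eq] at h
  funext i j
  fin_cases i <;> fin_cases j <;> simp [h]

/-- The three central scalars. -/
def scalars : List ℕ := [1, 17, 12]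

/-- Equality modulo the scalars. -/
def projEq (A B : MN) : Bool := scalars.any fun z => eqN A (mmN (scN z) B)

/-- A list of words closed under products modulo the scalars, with distinct values. -/
def closedList (L : List (List (Fin 5))) : Bool :=
  (L.all fun a => L.all fun b => L.any fun c => projEq (mmN (evalN genN a) (evalN genN b)) (evalN genN c)) &&
  ((List.range L.length).all fun i => (List.range L.length).all fun j =>
    decide (i = j) || !projEq (evalN genN (L.getD i [])) (evalN genN (L.getD j []))) &&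
  L.any (fun a => a.isEmpty)

/-- Four small subgroups. -/
def subs : List (List (List (Fin 5))) :=
  [[[], [0, 3, 1], [1, 1, 0, 3], [1, 3, 3, 0], [3, 0, 1, 3]],
   [[], [2, 1, 4, 0, 3], [0, 3, 1, 4, 2, 2], [1, 3, 3, 2, 4, 0], [2, 0, 3, 2, 1, 4], [3, 4, 0, 1, 4, 2],
    [4, 2, 0, 1, 3, 4]],
   [[], [3, 4], [4, 3], [0, 1, 1, 0], [3, 4, 4, 3], [0, 1, 1, 0, 3, 4], [0, 1, 1, 0, 4, 3], [0, 3, 1, 4, 0, 3]],
   [[], [0], [0, 0], [1, 3, 4, 1, 3], [1, 4, 3, 1, 4], [0, 1, 3, 4, 1, 3], [0, 1, 4, 3, 1, 4],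
    [1, 0, 3, 4, 4, 1], [1, 0, 4, 3, 3, 1]]]

theorem cert_gens : ∀ i, detN (genN i) = 1 ∧
    eqN (mmN (mmN (fun a b => genN i b a) antiN) (fun a b => sgN (genN i a b))) antiN = true ∧
    projEq (mmN (genN i) (mmN (genN i) (genN i))) (scN 1) = true := by decide +kernel

theorem cert_pairs : ∀ i j, i ≠ j →
    projEq (mmN (mmN (genN i) (genN j)) (mmN (genN i) (genN j))) (scN 1) = true := by decide +kernel

theorem cert_subs : ∀ L ∈ subs, closedList L = true := by decide +kernel

variable {F : Type*} [Field F] [Fintype F] (C : Frame F)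

theorem exists_gens :
    ∃ X : Fin 5 → ↥(suAnti C.σ), ∀ i, mat₃ C.σ (X i) = toMat C.r (genN i) := by
  haveI := C.char5
  choose X hX using fun i => exists_mem_suAnti C.hr C.hσ (cert_gens i).1
    (fun a b => congrFun (congrFun (eq_of_eqN (cert_gens i).2.1) a) b)
  exact ⟨X, hX⟩

theorem mat_eval {X : Fin 5 → ↥(suAnti C.σ)} (hX : ∀ i, mat₃ C.σ (X i) = toMat C.r (genN i)) :
    ∀ w : List (Fin 5), mat₃ C.σ (w.map X).prod = toMat C.r (evalN genN w)
  | [] => by
      haveI := C.char5
      rw [List.map_nil, List.prod_nil, map_one, evalN, toMat_sc, phi_one, map_one]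
  | i :: w => by
      haveI := C.char5
      rw [List.map_cons, List.prod_cons, map_mul, hX, mat_eval hX w, evalN, toMat_mul C.hr]

theorem mk_eq_of_projEq {a b : ↥(suAnti C.σ)} {A B : MN} (ha : mat₃ C.σ a = toMat C.r A)
    (hb : mat₃ C.σ b = toMat C.r B) (h : projEq A B = true) :
    (QuotientGroup.mk' (Subgroup.center ↥(suAnti C.σ))) a = QuotientGroup.mk' _ b := by
  haveI := C.char5
  obtain ⟨z, -, hz⟩ := List.any_eq_true.1 h
  rw [eq_of_eqN hz, toMat_mul C.hr, toMat_sc, ← hb] at ha
  symm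
  rw [QuotientGroup.mk'_eq_mk']
  refine ⟨b⁻¹ * a, mem_center_aux C (x := phi C.r z) ?_, by group⟩
  rw [map_mul, ha, ← Matrix.mul_assoc, ← (Matrix.scalar_commute (phi C.r z) (fun r => Commute.all _ _) _).eq,
    Matrix.mul_assoc, ← map_mul, inv_mul_cancel, map_one, Matrix.mul_one]
where
  mem_center_aux {F : Type _} [Field F] [Fintype F] (C : Frame F) {g : ↥(suAnti C.σ)} {x : F}
      (he : mat₃ C.σ g = Matrix.scalar (Fin 3) x) : g ∈ Subgroup.center ↥(suAnti C.σ) :=
    CfsgLib.KnownSimple.PSUThree.mem_center_of_scalar he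

theorem projEq_of_mk_eq {a b : ↥(suAnti C.σ)} {A B : MN} (ha : mat₃ C.σ a = toMat C.r A)
    (hb : mat₃ C.σ b = toMat C.r B) (hA : ∀ i j, A i j < 25) (hB : ∀ i j, B i j < 25)
    (h : (QuotientGroup.mk' (Subgroup.center ↥(suAnti C.σ))) b = QuotientGroup.mk' _ a) :
    projEq A B = true := by
  haveI := C.char5
  obtain ⟨z, hz, e⟩ := (QuotientGroup.mk'_eq_mk' _).1 h
  obtain ⟨s, hs3, hs⟩ := scalar_of_mem_center C.uni hz
  have hsN : ∃ k ∈ scalars, phi C.r k = s := by
    have h1 : (s - 1) * ((s - phi C.r 17) * (s - phi C.r 12)) = 0 := by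
      have e17 : phi C.r 17 + phi C.r 12 = -1 := by
        rw [← phi_add, show addN 17 12 = negN 1 by decide, phi_neg, phi_one]
      have e17' : phi C.r 17 * phi C.r 12 = 1 := by
        rw [← phi_mul C.hr, show mulN 17 12 = 1 by decide, phi_one]
      linear_combination hs3 - (s - 1) * s * e17 + (s - 1) * e17'
    rcases mul_eq_zero.1 h1 with h2 | h2
    · exact ⟨1, by simp [scalars], by rw [phi_one]; exact (sub_eq_zero.1 h2).symm⟩
    rcases mul_eq_zero.1 h2 with h3 | h3
    · exact ⟨17, by simp [scalars], (sub_eq_zero.1 h3).symm⟩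
    · exact ⟨12, by simp [scalars], (sub_eq_zero.1 h3).symm⟩
  obtain ⟨k, hk, rfl⟩ := hsN
  refine List.any_eq_true.2 ⟨k, hk, ?_⟩
  have hm : toMat C.r A = toMat C.r (mmN (scN k) B) := by
    rw [← ha, ← e, map_mul, hb, hs, toMat_mul C.hr, toMat_sc]
    simp [Matrix.smul_eq_diagonal_mul]
    exact (Matrix.scalar_commute (phi C.r k) (fun r => Commute.all _ _) (toMat C.r B)).eq.symm
  have hent : ∀ i j, A i j = mmN (scN k) B i j := fun i j => by
    refine phi_injective C.hr (hA i j) ?_ (congrFun (congrFun hm i) j)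
    simp only [mmN, addN]
    omega
  simp [eqN, hent]

theorem evalN_lt (w : List (Fin 5)) : ∀ i j, evalN genN w i j < 25 := by
  intro i j
  cases w with
  | nil => simp only [evalN, scN]; split <;> norm_num
  | cons a w => simp only [evalN, mmN, addN]; omega

theorem card_dvd_of_closed {X : Fin 5 → ↥(suAnti C.σ)} (hX : ∀ i, mat₃ C.σ (X i) = toMat C.r (genN i))
    {L : List (List (Fin 5))} (hL : closedList L = true) :
    L.length ∣ Nat.card ↥(Subgroup.closure (Set.range fun i =>
      (QuotientGroup.mk' (Subgroup.center ↥(suAnti C.σ))) (X i))) := by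
  classical
  haveI := C.char5
  simp only [closedList, Bool.and_eq_true, List.all_eq_true, List.any_eq_true, Bool.or_eq_true,
    decide_eq_true_eq, Bool.not_eq_true', List.mem_range] at hL
  obtain ⟨⟨hmul, hdist⟩, e0, he0, he0'⟩ := hL
  let ev : List (Fin 5) → Q C := fun w => QuotientGroup.mk' _ (w.map X).prod
  let S : Submonoid (Q C) :=
    { carrier := Set.range fun i : Fin L.length => ev (L.get i)
      one_mem' := by
        obtain ⟨i, hi⟩ := List.get_of_mem he0
        refine ⟨i, ?_⟩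
        show ev (L.get i) = 1
        rw [hi, List.isEmpty_iff.1 he0']
        simp [ev]
      mul_mem' := by
        rintro _ _ ⟨i, rfl⟩ ⟨j, rfl⟩
        obtain ⟨c, hc, hc'⟩ := hmul _ (List.get_mem L i) _ (List.get_mem L j)
        obtain ⟨k, hk⟩ := List.get_of_mem hc
        refine ⟨k, ?_⟩
        simp only [ev, hk, ← map_mul]
        exact (mk_eq_of_projEq C (by rw [map_mul, mat_eval C hX, mat_eval C hX, toMat_mul C.hr])
          (mat_eval C hX c) hc').symm }
  let K : Subgroup (Q C) :=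
    { S with
      inv_mem' := fun {x} hx => by
        obtain ⟨n, hn⟩ := (mem_powers_iff_mem_zpowers.2 (inv_mem (Subgroup.mem_zpowers x)) :
          x⁻¹ ∈ Submonoid.powers x)
        rw [← hn]
        exact S.pow_mem hx n }
  have hK : K ≤ Subgroup.closure (Set.range fun i =>
      (QuotientGroup.mk' (Subgroup.center ↥(suAnti C.σ))) (X i)) := by
    rintro _ ⟨i, rfl⟩
    simp only [ev, map_list_prod, List.map_map]
    refine list_prod_mem fun x hx => ?_
    obtain ⟨a, -, rfl⟩ := List.mem_map.1 hx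
    exact Subgroup.subset_closure ⟨a, rfl⟩
  have hinj : Function.Injective fun i : Fin L.length => ev (L.get i) := by
    intro i j h
    by_contra hne
    rcases hdist i i.2 j j.2 with h1 | h1
    · exact hne (Fin.ext h1)
    have h2 := projEq_of_mk_eq C (mat_eval C hX (L.get i)) (mat_eval C hX (L.get j)) (evalN_lt _) (evalN_lt _)
      h.symm
    rw [List.getD_eq_getElem _ _ i.2, List.getD_eq_getElem _ _ j.2] at h1
    exact Bool.false_ne_true (h1.symm.trans h2)
  have hcard : Nat.card K = L.length := by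
    show Nat.card (Set.range fun i : Fin L.length => ev (L.get i)) = _
    rw [Nat.card_congr (Equiv.ofInjective _ hinj).symm, Nat.card_fin]
  rw [← hcard]
  exact Subgroup.card_dvd_of_le hK

theorem exists_subgroup : ∃ H : Subgroup (Q C), Nat.card H = 2520 := by
  classical
  haveI := C.char5
  obtain ⟨X, hX⟩ := exists_gens C
  set f : Fin 5 → Q C := fun i => QuotientGroup.mk' _ (X i) with hf
  refine ⟨Subgroup.closure (Set.range f), ?_⟩
  let f' : Fin 5 → ↥(Subgroup.closure (Set.range f)) := fun i => ⟨f i, Subgroup.subset_closure ⟨i, rfl⟩⟩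
  have hone : mat₃ C.σ 1 = toMat C.r (scN 1) := by rw [map_one, toMat_sc, phi_one, map_one]
  have h3 : ∀ i, f' i ^ 3 = 1 := fun i => Subtype.ext (by
    rw [Subgroup.coe_pow, Subgroup.coe_one]
    show (QuotientGroup.mk' _ (X i)) ^ 3 = 1
    rw [← map_pow, ← map_one (QuotientGroup.mk' (Subgroup.center ↥(suAnti C.σ)))]
    exact mk_eq_of_projEq C (by rw [pow_three, map_mul, map_mul, hX, toMat_mul C.hr, toMat_mul C.hr]) hone
      (cert_gens i).2.2)
  have h2 : ∀ i j, i ≠ j → (f' i * f' j) ^ 2 = 1 := fun i j hij => Subtype.ext (by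
    rw [Subgroup.coe_pow, Subgroup.coe_mul, Subgroup.coe_one]
    show (QuotientGroup.mk' _ (X i) * QuotientGroup.mk' _ (X j)) ^ 2 = 1
    rw [← map_mul, ← map_pow,
      ← map_one (QuotientGroup.mk' (Subgroup.center ↥(suAnti C.σ)))]
    exact mk_eq_of_projEq C (by rw [pow_two, map_mul, map_mul, hX, hX, toMat_mul C.hr, toMat_mul C.hr]) hone
      (cert_pairs i j hij))
  have hgen : Subgroup.closure (Set.range f') = ⊤ := by
    refine Subgroup.map_injective (Subgroup.subtype_injective _) ?_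
    rw [MonoidHom.map_closure, ← Set.range_comp, ← MonoidHom.range_eq_map, Subgroup.range_subtype]
    rfl
  have hle := CfsgLib.RealChar.AltCover.presentation_card 5 f' h3 h2 hgen
  have hd : ∀ L ∈ subs, L.length ∣ Nat.card ↥(Subgroup.closure (Set.range f)) := fun L hL =>
    card_dvd_of_closed C hX (cert_subs L hL)
  have d5 : 5 ∣ Nat.card ↥(Subgroup.closure (Set.range f)) := hd (subs.getD 0 []) (by decide)
  have d7 : 7 ∣ Nat.card ↥(Subgroup.closure (Set.range f)) := hd (subs.getD 1 []) (by decide)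
  have d8 : 8 ∣ Nat.card ↥(Subgroup.closure (Set.range f)) := hd (subs.getD 2 []) (by decide)
  have d9 : 9 ∣ Nat.card ↥(Subgroup.closure (Set.range f)) := hd (subs.getD 3 []) (by decide)
  have hall : 2520 ∣ Nat.card ↥(Subgroup.closure (Set.range f)) :=
    (Nat.Coprime.mul_dvd_of_dvd_of_dvd (by norm_num) (Nat.Coprime.mul_dvd_of_dvd_of_dvd (by norm_num)
      (Nat.Coprime.mul_dvd_of_dvd_of_dvd (by norm_num) d5 d7) d8) d9 :)
  have hpos : 0 < Nat.card ↥(Subgroup.closure (Set.range f)) := Nat.card_pos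
  have := Nat.le_of_dvd hpos hall
  rw [show Nat.factorial (5 + 2) = 5040 from rfl] at hle
  omega

end CfsgLib.MinIndex.U35
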