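import Cfsg.Agent.Lib.MinIndex.U35.Codes
import Cfsg.Agent.Lib.SectRank.UnitaryUnipotentPair
import Cfsg.Agent.Lib.ClassicalForms.Unitary.Simple
import Cfsg.Agent.Lib.ClassicalForms.Unitary.Center

/-!
The group PSU₃(5): order, element orders and its Sylow 5-subgroups.
-/

set_option autoImplicit false
set_option linter.unusedSectionVars false
set_option linter.style.haveILetI false

namespace CfsgLib.MinIndex.U35

open Matrix CfsgLib.Amalgams CfsgLib.KnownSimple.PSUThree
open CfsgLib.SectRank

/-- The field of order 25 with a square root of 2 and its involution. -/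
structure Frame (F : Type*) [Field F] where
  /-- the square root of two -/
  r : F
  /-- the involution -/
  σ : F →+* F
  char5 : CharP F 5
  hr : r * r = 2
  hσ : σ r = -r
  uni : UniField F σ 5

variable {F : Type*} [Field F] [Fintype F]

theorem exists_frame (hF : Fintype.card F = 25) : Nonempty (Frame F) := by
  haveI : Fact (Nat.Prime 5) := ⟨by norm_num⟩
  haveI h5 : CharP F 5 := charP_of_card_eq_prime_pow (f := 2) (by rw [hF]; norm_num)
  obtain ⟨σ, hu⟩ := exists_uniField (F := F) (q := 5) (by rw [Nat.card_eq_fintype_card, hF]; norm_num)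
  have h2 : (2 : F) ≠ 0 := fun e => by
    have : ((2 : ℕ) : F) = 0 := by exact_mod_cast e
    rw [CharP.cast_eq_zero_iff F 5] at this
    norm_num at this
  have h16 : (2 : F) ^ (Fintype.card F / 2) = 1 := by
    rw [hF]
    norm_num
    linear_combination 819 * (five_eq_zero (F := F))
  obtain ⟨r, hr⟩ := (FiniteField.isSquare_iff (by rw [ringChar.eq F 5]; norm_num) h2).2 h16
  refine ⟨⟨r, σ, h5, hr.symm, ?_, hu⟩⟩
  rw [hu.apply_eq, show r ^ 5 = (r * r) * (r * r) * r by ring, ← hr]
  linear_combination r * five_eq_zero (F := F)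

variable (C : Frame F)

/-- PSU₃(5). -/
abbrev Q : Type _ := ↥(suAnti C.σ) ⧸ Subgroup.center ↥(suAnti C.σ)

theorem card_field (C : Frame F) : Fintype.card F = 5 ^ 2 := by
  rw [← Nat.card_eq_fintype_card, C.uni.card]

theorem exists_equiv : Nonempty (Q C ≃* Cfsg.PSU 3 F 5) := by
  obtain ⟨e⟩ := exists_suAnti_equiv C.uni
  refine ⟨QuotientGroup.congr _ _ e ?_⟩
  ext x
  constructor
  · rintro ⟨y, hy, rfl⟩
    exact Subgroup.mem_center_iff.2 fun u => e.symm.injective (by
      simp only [map_mul, MonoidHom.coe_coe, e.symm_apply_apply]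
      exact Subgroup.mem_center_iff.1 hy (e.symm u))
  · intro hx
    refine ⟨e.symm x, Subgroup.mem_center_iff.2 fun u => e.injective ?_, e.apply_symm_apply x⟩
    simp only [map_mul, e.apply_symm_apply]
    exact Subgroup.mem_center_iff.1 hx (e u)

theorem card_Q : Nat.card (Q C) = 126000 := by
  obtain ⟨e⟩ := exists_equiv C
  have h := CfsgLib.ClassicalForms.card_psu_mul (F := F) (q := 5) (n := 3) C.uni.card (by norm_num)
  rw [CfsgLib.ClassicalForms.card_gu C.uni.card, ← Nat.card_congr e.toEquiv] at h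
  simp [Finset.prod_range_succ, Nat.even_iff] at h
  omega

theorem card_suAnti : Nat.card ↥(suAnti C.σ) = 378000 := by
  have h := (Subgroup.center ↥(suAnti C.σ)).card_eq_card_quotient_mul_card_subgroup
  obtain ⟨e⟩ := exists_suAnti_equiv C.uni
  have hc : Nat.card (Subgroup.center ↥(suAnti C.σ)) = 3 := by
    rw [Nat.card_congr (Subgroup.centerCongr e).toEquiv,
      CfsgLib.ClassicalForms.card_center_su C.uni.card (by norm_num)]
    rfl
  rw [hc, show Nat.card (↥(suAnti C.σ) ⧸ Subgroup.center ↥(suAnti C.σ)) = 126000 from card_Q C] at h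
  omega

theorem isSimpleGroup_Q : IsSimpleGroup (Q C) := by
  obtain ⟨e⟩ := exists_equiv C
  haveI := CfsgLib.ClassicalForms.isSimpleGroup_psu (n := 3) (card_field C) le_rfl (by norm_num)
  exact MulEquiv.isSimpleGroup e

theorem orders (x : Q C) : x ^ 6 = 1 ∨ x ^ 10 = 1 ∨ x ^ 8 = 1 ∨ x ^ 7 = 1 := by
  obtain ⟨e⟩ := exists_equiv C
  haveI : Fact (Nat.Prime 5) := ⟨by norm_num⟩
  haveI := C.char5
  obtain ⟨A, hA⟩ := QuotientGroup.mk_surjective (e x)
  obtain ⟨s, hs, hc⟩ := exists_pow_scalar (F := F) (q := 5) 5 (by norm_num) (card_field C) A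
  have h1 : x ^ s = 1 := e.injective (by
    rw [map_pow, ← hA, map_one, ← orderOf_dvd_iff_pow_eq_one]
    exact (CfsgLib.CharDegrees.orderOf_toPSU_dvd_iff (card_field C) le_rfl A s).2 hc)
  simp only [orderSet, Set.mem_insert_iff, Set.mem_singleton_iff] at hs
  norm_num at hs
  rcases hs with rfl | rfl | rfl | rfl <;> simp [h1]

/-- The image of the unitriangular group. -/
noncomputable def sylFive : Subgroup (Q C) :=
  (uGrp₃ (σ := C.σ)).map (QuotientGroup.mk' _)

theorem mat_of_mem {g : ↥(suAnti C.σ)} (hg : g ∈ uGrp₃ (σ := C.σ)) :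
    ∃ b c hc, g = uEl₃ C.uni.conj_conj b c hc := by
  obtain ⟨h00, h11, h22, h10, h20, h21⟩ := hg
  obtain ⟨hc, e⟩ := SUPair.exists_uEl_of_mat C.uni.conj_conj (g := g) (b := mat₃ C.σ g 1 2)
    (c := mat₃ C.σ g 0 2) (by
      ext i j
      fin_cases i <;> fin_cases j <;> simp [uMat₃, h00, h11, h22, h10, h20, h21]
      -- the remaining corner is read off from the form
      have h := SUPair.form_entries g 2 1
      simp [antiForm, h00, h11, h22, h10, h20, h21] at h
      have h2 := congrArg C.σ h
      rw [map_add, map_zero, C.uni.conj_conj] at h2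
      linear_combination h2)
  exact ⟨_, _, hc, e⟩

end CfsgLib.MinIndex.U35
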