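import Cfsg.Agent.Lib.MinIndex.U35.Sylow
import Cfsg.Agent.Lib.MinIndex.U35.Count
import Cfsg.Agent.Lib.MinIndex.U35.A7

/-!
The least index of a proper subgroup of PSU₃(5) is 50.
-/

set_option autoImplicit false

namespace CfsgLib.MinIndex.U35

theorem min_index {F : Type*} [Field F] [Fintype F] (hF : Fintype.card F = 25) :
    (∀ H : Subgroup (Cfsg.PSU 3 F 5), H ≠ ⊤ → 50 ≤ H.index) ∧
      ∃ H : Subgroup (Cfsg.PSU 3 F 5), H.index = 50 := by
  obtain ⟨C⟩ := exists_frame hF
  obtain ⟨e⟩ := exists_equiv C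
  haveI : Fact (Nat.Prime 5) := ⟨by norm_num⟩
  haveI := isSimpleGroup_Q C
  have hc := card_Q C
  obtain ⟨hTI, hN⟩ := sylow_five C
  refine ⟨fun H hH => ?_, ?_⟩
  · have hidx : (H.comap e.toMonoidHom).index = H.index :=
      Subgroup.index_comap_of_surjective H e.surjective
    rw [← hidx]
    refine fifty_le_index hc (orders C) hTI hN fun htop => hH (eq_top_iff.2 fun x _ => ?_)
    have h : e.symm x ∈ H.comap e.toMonoidHom := htop ▸ Subgroup.mem_top _
    simpa using h
  · obtain ⟨H, hH⟩ := exists_subgroup C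
    refine ⟨H.map e.toMonoidHom, ?_⟩
    rw [Subgroup.index_map_of_bijective e.bijective]
    have h := H.card_mul_index
    rw [hH, hc] at h
    omega

end CfsgLib.MinIndex.U35
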