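import Cfsg.Agent.Lib.MinIndex.U35.Group

/-!
The Sylow 5-subgroups of PSU₃(5) intersect trivially and have normalisers of order at most 1000.
-/

set_option autoImplicit false
set_option linter.unusedSectionVars false
set_option linter.style.haveILetI false

namespace CfsgLib.MinIndex.U35

open Matrix CfsgLib.Amalgams CfsgLib.SectRank
open scoped Pointwise

variable {F : Type*} [Field F] [Fintype F] (C : Frame F)

/-- A code solving the defining equation of the unipotent coordinates. -/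
def cN (b : Fin 25) (k : Fin 5) : ℕ := 2 * (b.1 % 5 * (b.1 % 5) + 3 * (b.1 / 5 * (b.1 / 5))) % 5 + 5 * k.1

theorem cN_cert : ∀ (b : Fin 25) (k : Fin 5),
    addN (addN (cN b k) (sgN (cN b k))) (mulN b.1 (sgN b.1)) = 0 ∧ cN b k < 25 ∧ cN b k / 5 = k.1 := by
  decide +kernel

theorem card_uGrp : Nat.card ↥(uGrp₃ (σ := C.σ)) = 125 := by
  haveI : Fact (Nat.Prime 5) := ⟨by norm_num⟩
  haveI := C.char5
  have hc : ∀ b k, phi C.r (cN b k) + C.σ (phi C.r (cN b k)) + phi C.r b.1 * C.σ (phi C.r b.1) = 0 := by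
    intro b k
    rw [← phi_sg C.hσ, ← phi_sg C.hσ, ← phi_mul C.hr, ← phi_add, ← phi_add, (cN_cert b k).1, phi_zero]
  let f : Fin 25 × Fin 5 → ↥(uGrp₃ (σ := C.σ)) := fun p =>
    ⟨uEl₃ C.uni.conj_conj _ _ (hc p.1 p.2), by
      refine ⟨?_, ?_, ?_, ?_, ?_, ?_⟩ <;> simp [uMat₃]⟩
  have hinj : Function.Injective f := by
    rintro ⟨b, k⟩ ⟨b', k'⟩ h
    have h1 := congrArg (fun M : Matrix (Fin 3) (Fin 3) F => (M 1 2, M 0 2))
      (congrArg (fun x : ↥(uGrp₃ (σ := C.σ)) => mat₃ C.σ (x : ↥(suAnti C.σ))) h)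
    simp only [f, mat₃_uEl, uMat₃, Prod.mk.injEq] at h1
    simp at h1
    obtain rfl : b = b' := Fin.ext (phi_injective C.hr b.2 b'.2 h1.1)
    have := phi_injective C.hr (cN_cert b k).2.1 (cN_cert b k').2.1 h1.2
    have hk : k = k' := Fin.ext (by rw [← (cN_cert b k).2.2, this, (cN_cert b k').2.2])
    rw [hk]
  have hle := Nat.card_le_card_of_injective f hinj
  rw [Nat.card_prod, Nat.card_fin, Nat.card_fin] at hle
  obtain ⟨k, hk⟩ := IsPGroup.iff_card.1 (isPGroup_uGrp₃ C.uni (p := 5))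
  have hdvd := Subgroup.card_subgroup_dvd_card (uGrp₃ (σ := C.σ))
  rw [card_suAnti C, hk] at hdvd
  rw [hk] at hle ⊢
  have h4 : k < 4 := by
    by_contra hlt
    have : 5 ^ 4 ∣ 378000 := (pow_dvd_pow 5 (by omega)).trans hdvd
    norm_num at this
  interval_cases k <;> simp_all

theorem center_eq_one {z : ↥(suAnti C.σ)} (hz : z ∈ Subgroup.center ↥(suAnti C.σ))
    (hz5 : z ^ 125 = 1) : z = 1 := by
  obtain ⟨s, hs3, hs⟩ := scalar_of_mem_center C.uni hz
  have h := congrArg (mat₃ C.σ) hz5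
  rw [map_pow, hs, smul_pow, one_pow, map_one] at h
  have h125 : s ^ 125 = 1 := by simpa using congrFun (congrFun h 0) 0
  have hs1 : s = 1 := by
    rw [show 125 = 3 * 41 + 2 by norm_num, pow_add, pow_mul, hs3, one_pow, one_mul] at h125
    calc s = s * s ^ 2 := by rw [h125, mul_one]
      _ = 1 := by rw [← pow_succ']; exact hs3
  exact mat₃_injective C.σ (by rw [hs, hs1, one_smul, map_one])

theorem uGrp_pow {u : ↥(suAnti C.σ)} (hu : u ∈ uGrp₃ (σ := C.σ)) : u ^ 125 = 1 := by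
  have h := pow_card_eq_one' (x := (⟨u, hu⟩ : ↥(uGrp₃ (σ := C.σ))))
  rw [card_uGrp] at h
  exact congrArg Subtype.val h

/-- The upper triangular subgroup. -/
noncomputable def upperGrp : Subgroup ↥(suAnti C.σ) :=
  Subgroup.normalizer (uGrp₃ (σ := C.σ) : Set ↥(suAnti C.σ))

theorem conj_mem_of_upper {t : ↥(suAnti C.σ)} (h20 : mat₃ C.σ t 2 0 = 0) {u : ↥(suAnti C.σ)}
    (hu : u ∈ uGrp₃ (σ := C.σ)) : t * u * t⁻¹ ∈ uGrp₃ (σ := C.σ) := by
  obtain ⟨b, c, hc, rfl⟩ := mat_of_mem C hu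
  obtain ⟨c', hc', e⟩ := SUPair.conj_uEl C.uni.conj_conj t h20 b c hc
  rw [e]
  refine ⟨?_, ?_, ?_, ?_, ?_, ?_⟩ <;> simp [uMat₃]

theorem mem_upperGrp {t : ↥(suAnti C.σ)} (h20 : mat₃ C.σ t 2 0 = 0) : t ∈ upperGrp C := by
  rw [upperGrp]
  exact Subgroup.mem_normalizer_iff.2 fun u => ⟨fun hu => conj_mem_of_upper C h20 hu, fun hu => by
    have e : (uGrp₃ (σ := C.σ)).map (MulAut.conj t).toMonoidHom = uGrp₃ (σ := C.σ) := by
      refine Subgroup.eq_of_le_of_card_ge ?_ (le_of_eq (Subgroup.card_map_of_injective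
        (MulAut.conj t).injective).symm)
      rintro _ ⟨v, hv, rfl⟩
      exact conj_mem_of_upper C h20 hv
    rw [← e] at hu
    obtain ⟨v, hv, hvu⟩ := hu
    have : v = u := (MulAut.conj t).injective hvu
    exact this ▸ hv⟩

theorem upper_of_conj {t u v z : ↥(suAnti C.σ)} (hu : u ∈ uGrp₃ (σ := C.σ)) (hu1 : u ≠ 1)
    (hv : v ∈ uGrp₃ (σ := C.σ)) (hz : z ∈ Subgroup.center ↥(suAnti C.σ)) (e : t * u * t⁻¹ = v * z) :
    mat₃ C.σ t 2 0 = 0 := by
  have hz1 : z = 1 := by
    refine center_eq_one C hz ?_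
    have h := congrArg (· ^ 125) e
    simp only [conj_pow, uGrp_pow C hu, mul_one, mul_inv_cancel] at h
    rw [(Commute.all' hz v).mul_pow, uGrp_pow C hv, one_mul] at h
    exact h.symm
  rw [hz1, mul_one] at e
  have hv1 : v ≠ 1 := fun h => hu1 (conj_eq_one_iff.1 (e.trans h))
  have e' : v * t = t * u := by rw [← e]; group
  obtain ⟨b, c, hc, rfl⟩ := mat_of_mem C hu
  obtain ⟨b', c', hc', rfl⟩ := mat_of_mem C hv
  have h0 := congrArg (fun M => (mat₃ C.σ M : Matrix (Fin 3) (Fin 3) F) 0 0) e'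
  have h1 := congrArg (fun M => (mat₃ C.σ M : Matrix (Fin 3) (Fin 3) F) 1 0) e'
  simp [uMat₃, Matrix.mul_apply, Fin.sum_univ_three] at h0 h1
  rcases eq_or_ne b' 0 with hb | hb
  · have hc0 : c' ≠ 0 := fun hc0 => hv1 (mat₃_injective C.σ (by
      rw [mat₃_uEl, map_one, hb, hc0]
      ext i j
      fin_cases i <;> fin_cases j <;> simp [uMat₃]))
    rw [hb, map_zero] at h0
    simpa [hc0] using h0
  · simpa [hb] using h1
where
  Commute.all' {z : ↥(suAnti C.σ)} (hz : z ∈ Subgroup.center ↥(suAnti C.σ)) (v : ↥(suAnti C.σ)) :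
      Commute v z := Subgroup.mem_center_iff.1 hz v

theorem card_upperGrp_le : Nat.card ↥(upperGrp C) ≤ 3000 := by
  have key : ∀ t ∈ upperGrp C, mat₃ C.σ t 2 0 = 0 := by
    intro t ht
    haveI : Fact (Nat.Prime 5) := ⟨by norm_num⟩
    haveI : Nontrivial ↥(uGrp₃ (σ := C.σ)) := Finite.one_lt_card_iff_nontrivial.1 (by rw [card_uGrp]; norm_num)
    obtain ⟨⟨u, hu⟩, hu1⟩ := exists_ne (1 : ↥(uGrp₃ (σ := C.σ)))
    exact upper_of_conj C hu (fun e => hu1 (Subtype.ext e)) ((Subgroup.mem_normalizer_iff.1 ht u).1 hu)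
      (one_mem _) (mul_one _).symm
  have hne : ∀ t : ↥(upperGrp C), mat₃ C.σ (t : ↥(suAnti C.σ)) 0 0 ≠ 0 := fun t =>
    left_ne_zero_of_mul_eq_one (SUPair.upper _ (key t t.2)).2.2.1
  have hmul : ∀ a b : ↥(upperGrp C), mat₃ C.σ ((a * b : ↥(upperGrp C)) : ↥(suAnti C.σ)) 0 0 =
      mat₃ C.σ (a : ↥(suAnti C.σ)) 0 0 * mat₃ C.σ (b : ↥(suAnti C.σ)) 0 0 := by
    intro a b
    rw [Subgroup.coe_mul, map_mul]
    simp [Matrix.mul_apply, Fin.sum_univ_three, key b b.2,
      (SUPair.upper _ (key b b.2)).1]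
  let f : ↥(upperGrp C) →* Fˣ := MonoidHom.mk' (fun t => Units.mk0 _ (hne t))
    (fun a b => Units.ext (hmul a b))
  have hker : f.ker ≤ (uGrp₃ (σ := C.σ)).subgroupOf (upperGrp C) := by
    intro t ht
    obtain ⟨h10, h21, hlm, hdet⟩ := SUPair.upper (t : ↥(suAnti C.σ)) (key t t.2)
    have h00 : mat₃ C.σ (t : ↥(suAnti C.σ)) 0 0 = 1 := congrArg Units.val (MonoidHom.mem_ker.1 ht)
    rw [h00, one_mul] at hlm hdet
    have h22 : mat₃ C.σ (t : ↥(suAnti C.σ)) 2 2 = 1 := by
      have := congrArg C.σ hlm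
      rwa [C.uni.conj_conj, map_one] at this
    rw [h22, mul_one] at hdet
    exact ⟨h00, hdet, h22, h10, key t t.2, h21⟩
  have h1 := Subgroup.card_mul_index f.ker
  rw [Subgroup.index_ker] at h1
  have h2 : Nat.card f.ker ≤ 125 := by
    rw [← card_uGrp C]
    exact (Nat.le_of_dvd Nat.card_pos (Subgroup.card_dvd_of_le hker)).trans
      (le_of_eq (Nat.card_congr (Subgroup.subgroupOfEquivOfLe Subgroup.le_normalizer).toEquiv))
  have h3 : Nat.card f.range ≤ 24 := by
    refine (Nat.le_of_dvd Nat.card_pos (Subgroup.card_subgroup_dvd_card _)).trans ?_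
    rw [Nat.card_units, C.uni.card]
    norm_num
  rw [← h1]
  exact Nat.mul_le_mul h2 h3

theorem card_sylFive : Nat.card ↥(sylFive C) = 125 := by
  rw [← card_uGrp C, sylFive]
  have hinj : Function.Injective ((QuotientGroup.mk' (Subgroup.center ↥(suAnti C.σ))).comp
      (uGrp₃ (σ := C.σ)).subtype) := by
    rw [injective_iff_map_eq_one]
    intro u hu
    exact Subtype.ext (center_eq_one C ((QuotientGroup.eq_one_iff _).1 hu) (uGrp_pow C u.2))
  rw [show (uGrp₃ (σ := C.σ)).map (QuotientGroup.mk' (Subgroup.center ↥(suAnti C.σ))) =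
    ((QuotientGroup.mk' (Subgroup.center ↥(suAnti C.σ))).comp (uGrp₃ (σ := C.σ)).subtype).range by
      rw [MonoidHom.range_comp, Subgroup.range_subtype]]
  exact (Nat.card_congr (MonoidHom.ofInjective hinj).toEquiv).symm

/-- An element mapping a nontrivial element of the Sylow subgroup into it lies in the image of the upper group. -/
theorem mem_of_conj_mem {g x : Q C} (hx : x ∈ sylFive C) (hx1 : x ≠ 1) (hgx : g * x * g⁻¹ ∈ sylFive C) :
    g ∈ (upperGrp C).map (QuotientGroup.mk' _) := by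
  obtain ⟨t, rfl⟩ := QuotientGroup.mk'_surjective _ g
  obtain ⟨u, hu, rfl⟩ := hx
  obtain ⟨v, hv, hv'⟩ := hgx
  rw [← map_inv, ← map_mul, ← map_mul, QuotientGroup.mk'_eq_mk'] at hv'
  obtain ⟨z, hz, e⟩ := hv'
  exact ⟨t, mem_upperGrp C (upper_of_conj C hu (fun h => hx1 (by rw [h, map_one])) hv hz e.symm), rfl⟩

theorem map_upperGrp_le :
    (upperGrp C).map (QuotientGroup.mk' _) ≤ Subgroup.normalizer (sylFive C : Set (Q C)) := by
  exact Subgroup.le_normalizer_map (QuotientGroup.mk' (Subgroup.center ↥(suAnti C.σ)))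

theorem card_map_upperGrp_le :
    Nat.card ↥((upperGrp C).map (QuotientGroup.mk' (Subgroup.center ↥(suAnti C.σ)))) ≤ 1000 := by
  set N := (upperGrp C).map (QuotientGroup.mk' (Subgroup.center ↥(suAnti C.σ)))
  have hcomap : N.comap (QuotientGroup.mk' _) = upperGrp C := by
    rw [Subgroup.comap_map_eq, QuotientGroup.ker_mk', sup_eq_left]
    exact fun x hx => Subgroup.mem_normalizer_iff.2 fun u => by
      rw [← Subgroup.mem_center_iff.1 hx u, mul_inv_cancel_right]
  have hidx := Subgroup.index_comap_of_surjective N (QuotientGroup.mk'_surjective (Subgroup.center ↥(suAnti C.σ)))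
  rw [hcomap] at hidx
  have h1 := (upperGrp C).card_mul_index
  have h2 := N.card_mul_index
  rw [card_suAnti, hidx] at h1
  rw [show Nat.card (↥(suAnti C.σ) ⧸ Subgroup.center ↥(suAnti C.σ)) = 126000 from card_Q C] at h2
  have h3 := card_upperGrp_le C
  nlinarith [Nat.pos_of_ne_zero (N.index_ne_zero_of_finite)]

/-- Two Sylow 5-subgroups meet trivially, and the normalisers have order at most 1000. -/
theorem sylow_five [Fact (Nat.Prime 5)] :
    (∀ P P' : Sylow 5 (Q C), (P : Subgroup (Q C)) ⊓ P' ≠ ⊥ → P = P') ∧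
      ∀ P : Sylow 5 (Q C), Nat.card ↥(Subgroup.normalizer (P : Set (Q C))) ≤ 1000 := by
  have hS : Nat.card ↥(sylFive C) = 5 ^ (Nat.card (Q C)).factorization 5 := by
    rw [card_sylFive, card_Q]
    rw [show (126000 : ℕ).factorization 5 = 3 by
      rw [show (126000 : ℕ) = 5 ^ 3 * 1008 by norm_num, Nat.factorization_mul (by norm_num) (by norm_num),
        Finsupp.add_apply, Nat.Prime.factorization_pow (by norm_num), Finsupp.single_eq_same,
        Nat.factorization_eq_zero_of_not_dvd (by norm_num)]]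
    norm_num
  let S : Sylow 5 (Q C) := Sylow.ofCard (sylFive C) hS
  have hSc : (S : Subgroup (Q C)) = sylFive C := Sylow.coe_ofCard _ hS
  have hTI : ∀ (g : Q C), (sylFive C) ⊓ ((g • S : Sylow 5 (Q C)) : Subgroup (Q C)) ≠ ⊥ → g • S = S := by
    intro g hne
    obtain ⟨y, hy, hy1⟩ := (Subgroup.bot_or_exists_ne_one _).resolve_left hne
    obtain ⟨hy0, hyg⟩ := Subgroup.mem_inf.1 hy
    rw [Sylow.coe_subgroup_smul, hSc, Subgroup.mem_pointwise_smul_iff_inv_smul_mem] at hyg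
    have h := mem_of_conj_mem C (g := g⁻¹) hy0 hy1 (by simpa [MulAut.smul_def] using hyg)
    rw [Sylow.smul_eq_iff_mem_normalizer]
    have := map_upperGrp_le C h
    rw [← hSc] at this
    simpa using inv_mem this
  refine ⟨fun P P' hne => ?_, fun P => ?_⟩
  · obtain ⟨a, rfl⟩ := MulAction.exists_smul_eq (Q C) S P
    obtain ⟨b, rfl⟩ := MulAction.exists_smul_eq (Q C) S P'
    have h1 : ((a⁻¹ * b) • S : Sylow 5 (Q C)) = S := hTI _ (by
      intro hbot
      refine hne ?_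
      rw [← hSc] at hbot
      simp only [Sylow.coe_subgroup_smul, map_mul, mul_smul, map_inv] at hbot ⊢
      have h := congrArg (MulAut.conj a • ·) hbot
      simpa [Subgroup.smul_inf] using h)
    rw [mul_smul, inv_smul_eq_iff] at h1
    exact h1.symm
  · obtain ⟨a, rfl⟩ := MulAction.exists_smul_eq (Q C) S P
    refine le_trans (le_of_eq ?_) ((Subgroup.card_le_of_le (fun g hg => ?_)).trans (card_map_upperGrp_le C)
      : Nat.card ↥(Subgroup.normalizer ((S : Subgroup (Q C)) : Set (Q C))) ≤ 1000)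
    · refine Eq.trans ?_ (Subgroup.card_map_of_injective (f := (MulAut.conj a).toMonoidHom) (MulAut.conj a).injective)
      show Nat.card ↥(Subgroup.normalizer (((a • S : Sylow 5 (Q C)) : Subgroup (Q C)) : Set (Q C))) = _
      rw [Sylow.coe_subgroup_smul]
      rw [Subgroup.map_equiv_normalizer_eq _ (MulAut.conj a)]
      rfl
    · haveI : Nontrivial ↥(sylFive C) := Finite.one_lt_card_iff_nontrivial.1 (by rw [card_sylFive]; norm_num)
      obtain ⟨⟨x, hx⟩, hx1⟩ := exists_ne (1 : ↥(sylFive C))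
      refine mem_of_conj_mem C hx (fun e => hx1 (Subtype.ext e)) ?_
      have := (Subgroup.mem_normalizer_iff.1 hg x).1 (hSc ▸ hx)
      exact hSc ▸ this

end CfsgLib.MinIndex.U35
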